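import Cfsg.Agent.BX.Defs
import Cfsg.Agent.H12.BNExchange
import Cfsg.Agent.S0320

set_option autoImplicit false

namespace Cfsg.Agent.BX

open Subgroup H15
open Cfsg.Agent.CO1 (Cz mem_Cz)
open scoped commutatorElement

namespace BN1

open H12

variable {H E : Type*} [Group H] [Group E] {P : BNPair H} {π : E →* H} {B Γ : Subgroup E} {σ : P.S → E}
  {s : P.S} {w : Weyl P} {p q : E} {l l' : List P.S}

theorem dich {g h : H} (hg : Cell P (refl P s) g) (hh : Cell P (refl P s) h) :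
    g * h ∈ P.B ∨ Cell P (refl P s) (g * h) := by
  have := hg.refl_mul hh
  rwa [refl_mul_self, cell_one_iff] at this

theorem cell_inv (s : P.S) : Cell P (refl P s) (s : H)⁻¹ := by simpa [refl_inv] using (cell_refl s).inv

theorem posB (h : Pos s w) {x y : H} (hx : x ∈ P.B ∨ Cell P (refl P s) x) (hy : Cell P w y)
    (e : Cell P w (x * y)) : x ∈ P.B :=
  hx.resolve_right fun c => refl_ne_one s (mul_eq_right.1 ((h _ _ c hy).unique e))

theorem eq_of (h : ∀ p ∈ Γ, π p = 1 → p = 1) (hp : p ∈ Γ) (hq : q ∈ Γ) (e : π p = π q) : p = q :=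
  mul_inv_eq_one.1 (h _ (mul_mem hp (inv_mem hq)) (by rw [map_mul, map_inv, e, mul_inv_cancel]))

/-- lifts of `B` and of the generators -/
structure LD (P : BNPair H) (π : E →* H) (B : Subgroup E) (σ : P.S → E) : Prop where
  ps : ∀ s, π (σ s) = s
  pB : ∀ p ∈ B, π p ∈ P.B
  lift : ∀ b ∈ P.B, ∃ p ∈ B, π p = b
  inj : ∀ p ∈ B, π p = 1 → p = 1
  two : ∀ s t, ∃ Γ : Subgroup E, B ≤ Γ ∧ σ s ∈ Γ ∧ σ t ∈ Γ ∧ ∀ p ∈ Γ, π p = 1 → p = 1

/-- lifted cells -/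
def CE (B : Subgroup E) (σ : P.S → E) (w : Weyl P) (p : E) : Prop :=
  ∃ l, wp (refl P) l = w ∧ ∃ b ∈ B, ∃ c ∈ B, p = b * wp σ l * c

theorem CE.left (h : CE B σ w p) (hq : q ∈ B) : CE B σ w (q * p) := by
  obtain ⟨l, e, b, hb, c, hc, rfl⟩ := h
  exact ⟨l, e, q * b, mul_mem hq hb, c, hc, by simp only [mul_assoc]⟩

theorem CE.right (h : CE B σ w p) (hq : q ∈ B) : CE B σ w (p * q) := by
  obtain ⟨l, e, b, hb, c, hc, rfl⟩ := h
  exact ⟨l, e, b, hb, c * q, mul_mem hc hq, by simp only [mul_assoc]⟩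

theorem ce_self (l : List P.S) : CE B σ (wp (refl P) l) (wp σ l) :=
  ⟨l, rfl, 1, one_mem _, 1, one_mem _, by simp⟩

variable (D : LD P π B σ)
include D

theorem LD.loc (le : B ≤ Γ) (h : ∀ p ∈ Γ, π p = 1 → p = 1) (hp : p ∈ Γ) (e : π p ∈ P.B) : p ∈ B := by
  obtain ⟨q, hq, e1⟩ := D.lift _ e
  rwa [← eq_of h (le hq) hp e1]

theorem LD.pw (l : List P.S) : π (wp σ l) = wordN l := by
  induction l with
  | nil => simp [wordN]
  | cons s l ih => rw [wp_cons, map_mul, ih, D.ps]; simp [wordN]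

theorem LD.cw (l : List P.S) : Cell P (wp (refl P) l) (π (wp σ l)) := by
  rw [D.pw, ← mk_wordN]; exact cell_self _

theorem LD.cell (h : CE B σ w p) : Cell P w (π p) := by
  obtain ⟨l, rfl, b, hb, c, hc, rfl⟩ := h
  rw [map_mul, map_mul]
  exact ((D.cw l).mul_left (D.pB b hb)).mul_right (D.pB c hc)

theorem LD.nrm (s : P.S) : σ s ∈ normalizer ((B ⊓ P.N.comap π : Subgroup E) : Set E) := by
  obtain ⟨Γ, le, hs, -, h⟩ := D.two s s
  have k : ∀ g ∈ Γ, π g ∈ P.N → ∀ x ∈ B ⊓ P.N.comap π, g * x * g⁻¹ ∈ B ⊓ P.N.comap π := fun g hg n x hx =>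
    ⟨D.loc le h (mul_mem (mul_mem hg (le hx.1)) (inv_mem hg)) (by
      rw [map_mul, map_mul, map_inv]; exact P.conj_mem _ n _ ⟨D.pB x hx.1, hx.2⟩), by
      show π _ ∈ P.N
      rw [map_mul, map_mul, map_inv]; exact mul_mem (mul_mem n hx.2) (inv_mem n)⟩
  have n : π (σ s) ∈ P.N := D.ps s ▸ P.subset s.2
  refine mem_normalizer_iff.2 fun x => ⟨k _ hs n x, fun hx => ?_⟩
  simpa [mul_assoc] using k _ (inv_mem hs) (by rw [map_inv]; exact inv_mem n) _ hx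

theorem LD.word (e : wp (refl P) l = wp (refl P) l') : (wp σ l)⁻¹ * wp σ l' ∈ B := by
  let T : Subgroup E := B ⊓ P.N.comap π
  let σ' : P.S → normalizer (T : Set E) := fun s => ⟨σ s, D.nrm s⟩
  let f : P.S → normalizer (T : Set E) ⧸ T.subgroupOf (normalizer (T : Set E)) := fun s => QuotientGroup.mk (σ' s)
  have hf : ∀ a b k, (refl P a * refl P b) ^ k = 1 → (f a * f b) ^ k = 1 := fun a b k e1 => by
    obtain ⟨Γ, le, ha, hb, h⟩ := D.two a b
    rw [H12.refl, H12.refl, ← QuotientGroup.mk_mul, ← QuotientGroup.mk_pow, weyl_mk_eq_one_iff] at e1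
    have e2 : π ((σ a * σ b) ^ k) = ((a : H) * b) ^ k := by rw [map_pow, map_mul, D.ps, D.ps]
    rw [← QuotientGroup.mk_mul, ← QuotientGroup.mk_pow, QuotientGroup.eq_one_iff, mem_subgroupOf]
    exact ⟨D.loc le h (pow_mem (mul_mem ha hb) k) (e2 ▸ e1),
      show π ((σ a * σ b) ^ k) ∈ P.N from e2 ▸ pow_mem (mul_mem (P.subset a.2) (P.subset b.2)) k⟩
  obtain ⟨g, hg⟩ := (weyl_exchangeSystem P).exists_hom f
    (fun i => by simpa using hf i i 1 (by rw [pow_one, refl_mul_self])) hf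
  have h1 : ∀ l, wp f l = QuotientGroup.mk (wp σ' l) ∧ (wp σ' l).1 = wp σ l := fun l => by
    induction l with
    | nil => exact ⟨rfl, rfl⟩
    | cons s l ih => rw [wp_cons f, wp_cons σ', wp_cons σ, ih.1, ← ih.2]; exact ⟨rfl, rfl⟩
  have h2 := (hg l).symm.trans (e ▸ hg l')
  rw [(h1 l).1, (h1 l').1, QuotientGroup.eq, mem_subgroupOf] at h2
  rw [← (h1 l).2, ← (h1 l').2]
  exact h2.1

theorem LD.ex (h : CE B σ (wp (refl P) l) p) : ∃ b ∈ B, ∃ c ∈ B, p = b * wp σ l * c := by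
  obtain ⟨l', e, b, hb, c, hc, rfl⟩ := h
  exact ⟨b, hb, _, mul_mem (D.word e.symm) hc, by group⟩

theorem LD.red (hl : l.length = len (refl P) (wp (refl P) l)) (hp : p ∈ B)
    (e : π (wp σ l * p * (wp σ l)⁻¹) ∈ P.B) : wp σ l * p * (wp σ l)⁻¹ ∈ B := by
  induction l with
  | nil => simpa using hp
  | cons s l ih =>
    have h1 := reduced_right weyl_gen (l := [s]) (l' := l) hl
    have h2 : Pos s (wp (refl P) l) := pos_iff.2 (by rw [← wp_cons, ← hl, ← h1]; simp)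
    obtain ⟨Γ, le, hs, -, h⟩ := D.two s s
    have e1 : wp σ (s :: l) * p * (wp σ (s :: l))⁻¹ = σ s * (wp σ l * p * (wp σ l)⁻¹) * (σ s)⁻¹ := by
      rw [wp_cons]; group
    rw [e1] at e ⊢
    refine D.loc le h (mul_mem (mul_mem hs (le (ih h1 (posB h2 ?_ (D.cw l) ?_)))) (inv_mem hs)) e
    · have := dich ((cell_inv s).mul_right e) (cell_refl s)
      rwa [map_mul, map_mul, map_inv, D.ps, ← mul_assoc, inv_mul_cancel_left, inv_mul_cancel_right] at this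
    · rw [← map_mul, inv_mul_cancel_right, map_mul]
      exact (D.cw l).mul_right (D.pB p hp)

theorem LD.cinj (hp : CE B σ w p) (hq : CE B σ w q) (e : π p = π q) : p = q := by
  obtain ⟨l, hl, rfl⟩ := exists_reduced (weyl_gen w)
  obtain ⟨b, hb, c, hc, rfl⟩ := D.ex hp
  obtain ⟨b', hb', c', hc', rfl⟩ := D.ex hq
  have h1 := mul_mem (inv_mem hb') hb
  have e1 : π (wp σ l * (c' * c⁻¹) * (wp σ l)⁻¹) = π (b'⁻¹ * b) := by
    simp only [map_mul, map_inv] at e ⊢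
    rw [eq_mul_inv_of_mul_eq (eq_mul_inv_of_mul_eq e)]; group
  have := eq_of D.inj (D.red hl (mul_mem hc' (inv_mem hc)) (e1 ▸ D.pB _ h1)) h1 e1
  rw [← mul_inv_cancel_left b' b, ← this]; group

theorem LD.pos (h : Pos s w) (hp : CE B σ w p) : CE B σ (refl P s * w) (σ s * p) := by
  obtain ⟨l, rfl⟩ := weyl_gen w
  obtain ⟨Γ, le, hs, -, hΓ⟩ := D.two s s
  obtain ⟨b, hb, c, hc, e⟩ := (D.cw (s :: l)).exists_eq (h _ _ (cell_refl s) (D.cell hp))
  obtain ⟨b, hb', rfl⟩ := D.lift b hb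
  obtain ⟨c, hc', rfl⟩ := D.lift c hc
  have e1 : π ((σ s)⁻¹ * b * σ s) * π (wp σ l * c) = π p := by
    rw [eq_inv_mul_of_mul_eq e, wp_cons]; simp only [map_mul, map_inv, D.ps, mul_assoc]
  have h1 : (σ s)⁻¹ * b * σ s ∈ B := D.loc le hΓ (mul_mem (mul_mem (inv_mem hs) (le hb')) hs)
    (posB h (by rw [map_mul, map_mul, map_inv, D.ps]; exact dich ((cell_inv s).mul_right hb) (cell_refl s))
      (D.cell ((ce_self l).right hc')) (e1 ▸ D.cell hp))
  rw [← D.cinj (((ce_self l).right hc').left h1) hp (by rw [map_mul, e1])]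
  exact ⟨s :: l, rfl, b, hb', c, hc', by rw [wp_cons]; group⟩

theorem LD.step (s : P.S) (hp : CE B σ w p) : ∃ w, CE B σ w (σ s * p) := by
  by_cases h : Pos s w
  · exact ⟨_, D.pos h hp⟩
  have h1 : Pos s (refl P s * w) :=
    pos_iff.2 (by rw [← mul_assoc, refl_mul_self, one_mul]; exact len_lt_of_not_pos h)
  obtain ⟨l, hl⟩ := weyl_gen (refl P s * w)
  obtain ⟨Γ, le, hs, -, hΓ⟩ := D.two s s
  obtain ⟨b, hb, c, hc, rfl⟩ := D.ex (l := s :: l)
    (by rwa [wp_cons, hl, ← mul_assoc, refl_mul_self, one_mul])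
  have h2 : σ s * b * σ s ∈ Γ := mul_mem (mul_mem hs (le hb)) hs
  have h3 : CE B σ _ _ := (ce_self l).right hc
  rw [wp_cons, show σ s * (b * (σ s * wp σ l) * c) = σ s * b * σ s * (wp σ l * c) by simp only [mul_assoc]]
  rcases dich ((cell_refl s).mul_right (D.pB b hb)) (cell_refl s) with h4 | h4
  · exact ⟨_, h3.left (D.loc le hΓ h2 (by rwa [map_mul, map_mul, D.ps]))⟩
  · obtain ⟨x, hx, y, hy, e⟩ := (cell_refl s).exists_eq h4
    obtain ⟨x, hx', rfl⟩ := D.lift x hx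
    obtain ⟨y, hy', rfl⟩ := D.lift y hy
    rw [eq_of hΓ h2 (mul_mem (mul_mem (le hx') hs) (le hy')) (by simpa only [map_mul, D.ps] using e),
      mul_assoc, mul_assoc]
    exact ⟨_, (D.pos (hl ▸ h1) (h3.left hy')).left hx'⟩

theorem LD.ker (hp : p ∈ B ⊔ closure (Set.range σ)) (e : π p = 1) : p = 1 := by
  have h1 : ∃ w, CE B σ w p := by
    clear e
    rw [← closure_eq B, ← Subgroup.closure_union] at hp
    induction hp using closure_induction_left with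
    | one => exact ⟨_, ce_self []⟩
    | mul_left x hx y _ ih =>
      obtain ⟨w, ih⟩ := ih
      rcases hx with hx | ⟨s, rfl⟩
      exacts [⟨w, ih.left hx⟩, D.step s ih]
    | inv_mul_cancel x hx y _ ih =>
      obtain ⟨w, ih⟩ := ih
      rcases hx with hx | ⟨s, rfl⟩
      · exact ⟨w, ih.left (inv_mem hx)⟩
      · obtain ⟨Γ, le, hs, -, hΓ⟩ := D.two s s
        obtain ⟨w', h2⟩ := D.step s ih
        have := h2.left (inv_mem (D.loc le hΓ (mul_mem hs hs) (by rw [map_mul, D.ps]; exact P.sq_mem s s.2)))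
        exact ⟨w', by simpa only [mul_inv_rev, mul_assoc, inv_mul_cancel_left] using this⟩
  obtain ⟨w, h1⟩ := h1
  obtain rfl : w = wp (refl P) [] := (D.cell h1).unique (cell_one_iff.2 (e ▸ one_mem _))
  obtain ⟨b, hb, c, hc, e1⟩ := D.ex h1
  exact D.inj p (by rw [e1, wp_nil, mul_one]; exact mul_mem hb hc) e

end BN1

open BN1 H12 in
theorem bn_amal {H X I : Type*} [Group H] [Group X] [Nonempty I] (P : BNPair H) (K : I → Subgroup H)
    (τ : I → H → X) (hB : ∀ i, P.B ≤ K i) (hm : ∀ i, ∀ a ∈ K i, ∀ b ∈ K i, τ i (a * b) = τ i a * τ i b)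
    (ha : ∀ i j, ∀ a ∈ K i, a ∈ K j → τ i a = τ j a)
    (hS : ∀ s ∈ P.S, ∀ s' ∈ P.S, ∃ i, s ∈ K i ∧ s' ∈ K i) :
    ∃ φ : H →* X, ∀ i, ∀ a ∈ K i, φ a = τ i a := by
  have h1 : ∀ i, τ i 1 = 1 := fun i => left_eq_mul.1 (by rw [← hm i 1 (one_mem _) 1 (one_mem _), mul_one])
  let Γ : I → Subgroup (H × X) := fun i =>
    { carrier := {p | p.1 ∈ K i ∧ p.2 = τ i p.1}
      one_mem' := ⟨one_mem _, (h1 i).symm⟩
      mul_mem' := fun {p q} hp hq => ⟨mul_mem hp.1 hq.1, by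
        rw [Prod.snd_mul, Prod.fst_mul, hm i _ hp.1 _ hq.1, hp.2, hq.2]⟩
      inv_mem' := fun {p} hp => ⟨inv_mem hp.1, by
        rw [Prod.snd_inv, Prod.fst_inv, hp.2, inv_eq_iff_mul_eq_one, ← hm i _ hp.1 _ (inv_mem hp.1),
          mul_inv_cancel, h1]⟩ }
  have hi : ∀ i, ∀ p ∈ Γ i, MonoidHom.fst H X p = 1 → p = 1 := fun i p hp e =>
    Prod.ext e (hp.2.trans ((congrArg _ e).trans (h1 i)))
  have tr : ∀ {i j p}, p ∈ Γ i → p.1 ∈ K j → p ∈ Γ j := fun {i j p} hp e => ⟨e, hp.2.trans (ha i j _ hp.1 e)⟩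
  obtain ⟨i0⟩ := ‹Nonempty I›
  choose k hk _ using fun s : P.S => hS s s.2 s s.2
  let σ : P.S → H × X := fun s => (s, τ (k s) s)
  have hσ : ∀ {s : P.S} {i}, (s : H) ∈ K i → σ s ∈ Γ i := fun {s i} e => tr (i := k s) ⟨hk s, rfl⟩ e
  let B : Subgroup (H × X) := Γ i0 ⊓ P.B.comap (MonoidHom.fst H X)
  have le : ∀ i, B ≤ Γ i := fun i p hp => tr hp.1 (hB i hp.2)
  have D : LD P (MonoidHom.fst H X) B σ :=
    ⟨fun _ => rfl, fun _ hp => hp.2, fun b hb => ⟨(b, τ i0 b), ⟨⟨hB i0 hb, rfl⟩, hb⟩, rfl⟩,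
      fun p hp => hi i0 p hp.1, fun s t => let ⟨i, a, b⟩ := hS s s.2 t t.2; ⟨Γ i, le i, hσ a, hσ b, hi i⟩⟩
  have up : ∀ (M : Subgroup (H × X)) (J : Set H), B ≤ M → (∀ s : P.S, (s : H) ∈ J → σ s ∈ M) →
      P.parabolic (P.S ∩ J) ≤ (M ⊓ (B ⊔ closure (Set.range σ))).map (MonoidHom.fst H X) := fun M J a b =>
    parabolic_le_iff.2 ⟨fun x hx => let ⟨p, hp, e⟩ := D.lift x hx; ⟨p, ⟨a hp, mem_sup_left hp⟩, e⟩,
      fun s hs => ⟨σ ⟨s, hs.1⟩, ⟨b _ hs.2, mem_sup_right (subset_closure ⟨_, rfl⟩)⟩, rfl⟩⟩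
  obtain ⟨φ, hφ⟩ := Subgroup.exists_eq_graph (G := B ⊔ closure (Set.range σ)) ⟨fun p q e =>
    Subtype.ext (eq_of (π := MonoidHom.fst H X) (fun _ => D.ker) p.2 q.2 e), fun x => by
      obtain ⟨p, hp, e⟩ := up ⊤ Set.univ le_top (fun _ _ => trivial)
        (by rw [Set.inter_univ, parabolic_S]; trivial : x ∈ _)
      exact ⟨⟨p, hp.2⟩, e⟩⟩
  refine ⟨φ, fun i a hx => ?_⟩
  obtain ⟨p, hp, rfl⟩ := up (Γ i) (K i) (le i) (fun _ => hσ) (eq_parabolic (hB i) ▸ hx)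
  exact (MonoidHom.mem_graph.1 (hφ ▸ hp.2)).trans hp.1.2

end Cfsg.Agent.BX
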