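import Cfsg.Agent.BX.Defs
import Cfsg.Agent.H12.BNExchange

set_option autoImplicit false

namespace Cfsg.Agent.BX

open Subgroup H15
open Cfsg.Agent.CO1 (Cz mem_Cz)
open scoped commutatorElement

theorem bn2_le {H : Type*} [Group H] {P : BNPair H} {M N : Subgroup H} (hM : P.B ≤ M) (hN : P.B ≤ N)
    (h : ∀ s ∈ P.S, s ∈ M → s ∈ N) : M ≤ N :=
  (H12.eq_parabolic hM).le.trans (H12.parabolic_le_iff.2 ⟨hN, fun s hs => h s hs.1 hs.2⟩)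

theorem bn2_ex {H : Type*} [Group H] {P : BNPair H} {M N : Subgroup H} (hM : P.B ≤ M) (hN : P.B ≤ N)
    (h : ¬ M ≤ N) : ∃ s ∈ P.S, s ∈ M ∧ s ∉ N := by
  by_contra k
  exact h (bn2_le hM hN fun s hs h1 => by_contra fun h2 => k ⟨s, hs, h1, h2⟩)

theorem bn2_sup {H : Type*} [Group H] {P : BNPair H} {M N : Subgroup H} (hM : P.B ≤ M) (hN : P.B ≤ N)
    (h : M ⊔ N = ⊤) {s : H} (hs : s ∈ P.S) (h1 : s ∉ N) : s ∈ M := by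
  have k : M ⊔ N ≤ P.parabolic (P.S ∩ ((M : Set H) ∪ N)) := sup_le
    (bn2_le hM (H12.le_parabolic _) fun t ht m => H12.subset_parabolic _ ⟨ht, Or.inl m⟩)
    (bn2_le hN (H12.le_parabolic _) fun t ht m => H12.subset_parabolic _ ⟨ht, Or.inr m⟩)
  exact (H12.mem_of_mem_parabolic Set.inter_subset_left hs (k (h ▸ mem_top s))).2.resolve_right h1

theorem bn_lat {H : Type*} [Group H] (P : BNPair H) (hf : P.S.Finite) (h4 : P.S.ncard ≤ 4)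
    {K1 K2 K3 : Subgroup H} (b1 : P.B ≤ K1) (b2 : P.B ≤ K2) (b3 : P.B ≤ K3) (n1 : K1 ≠ ⊤) (s2 : K1 ⊔ K2 = ⊤)
    (s3 : K1 ⊔ K3 = ⊤) (n23 : ¬ K2 ≤ K3) (n32 : ¬ K3 ≤ K2) (nB : ¬ K1 ⊓ K2 ⊓ K3 ≤ P.B) :
    (∀ s ∈ P.S, ∀ s' ∈ P.S, (s ∈ K1 ∧ s' ∈ K1) ∨ (s ∈ K2 ∧ s' ∈ K2) ∨ (s ∈ K3 ∧ s' ∈ K3)) ∧
      K1 ≤ K1 ⊓ K2 ⊔ K1 ⊓ K3 := by
  obtain ⟨a, aS, a2, a3⟩ := bn2_ex b2 b3 n23
  obtain ⟨b, bS, b3', b2'⟩ := bn2_ex b3 b2 n32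
  obtain ⟨c, cS, ⟨⟨c1, c2⟩, c3⟩, -⟩ := bn2_ex (le_inf (le_inf b1 b2) b3) le_rfl nB
  obtain ⟨d, dS, -, d1⟩ := bn2_ex le_top b1 (fun h => n1 (top_le_iff.1 h))
  have a1 : a ∈ K1 := bn2_sup b1 b3 s3 aS a3
  have b1' : b ∈ K1 := bn2_sup b1 b2 s2 bS b2'
  have d2 : d ∈ K2 := bn2_sup b2 b1 (sup_comm K1 K2 ▸ s2) dS d1
  have d3 : d ∈ K3 := bn2_sup b3 b1 (sup_comm K1 K3 ▸ s3) dS d1
  have c1 : c ∈ K1 := c1
  have c2 : c ∈ K2 := c2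
  have c3 : c ∈ K3 := c3
  have e : ({a, b, c, d} : Set H) = P.S := by
    refine Set.eq_of_subset_of_ncard_le ?_ (h4.trans (le_of_eq ?_)) hf
    · rintro x (rfl | rfl | rfl | rfl) <;> assumption
    · have ab : a ≠ b := fun e => a3 (e ▸ b3')
      have ac : a ≠ c := fun e => a3 (e ▸ c3)
      have ad : a ≠ d := fun e => a3 (e ▸ d3)
      have bc : b ≠ c := fun e => b2' (e ▸ c2)
      have bd : b ≠ d := fun e => b2' (e ▸ d2)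
      have cd : c ≠ d := fun e => d1 (e ▸ c1)
      rw [Set.ncard_insert_of_notMem (by simp [ab, ac, ad]), Set.ncard_insert_of_notMem (by simp [bc, bd]),
        Set.ncard_pair cd]
  constructor
  · rw [← e]
    rintro s (rfl | rfl | rfl | rfl) s' (rfl | rfl | rfl | rfl) <;> simp [*]
  · refine bn2_le b1 (le_sup_of_le_left (le_inf b1 b2)) fun s hs h1 => ?_
    rw [← e] at hs
    rcases hs with rfl | rfl | rfl | rfl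
    · exact mem_sup_left ⟨h1, a2⟩
    · exact mem_sup_right ⟨h1, b3'⟩
    · exact mem_sup_left ⟨h1, c2⟩
    · exact mem_sup_left ⟨h1, d2⟩

end Cfsg.Agent.BX
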