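import Cfsg.Agent.BX.Defs

set_option autoImplicit false

namespace Cfsg.Agent.BX

open Subgroup H15
open Cfsg.Agent.CO1 (Cz mem_Cz)
open scoped commutatorElement

variable {G E : Type*} [Group G] [Group E] {F V : Type*} [Field F] [AddCommGroup V] [Module F V]
  {ρ : G →* Module.End F V} {π : E →* G} {ι : V → E} {H K N R : Subgroup G} {σ τ : G → E}

/-- averaging over the cosets of `H` in `K` -/
theorem coh1_avg [Finite G] (H K : Subgroup G) (hi : (H.relIndex K : F) ≠ 0) :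
    ∃ A : (G → V) →ₗ[F] V, (∀ v, A (fun _ => v) = v) ∧ (∀ g g' : G → V, (∀ w ∈ K, g w = g' w) → A g = A g') ∧
      (∀ (φ : V →ₗ[F] V) (g : G → V), A (fun w => φ (g w)) = φ (A g)) ∧
      ∀ g : G → V, (∀ y ∈ K, ∀ h ∈ H, h ∈ K → g (y * h) = g y) → ∀ x ∈ K, A (fun w => g (x * w)) = A g := by
  classical
  let _ : Fintype (K ⧸ H.subgroupOf K) := Fintype.ofFinite _
  refine ⟨(H.relIndex K : F)⁻¹ • ∑ w : K ⧸ H.subgroupOf K, LinearMap.proj (w.out : G), fun v => ?_,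
    fun g g' e => ?_, fun φ g => ?_, fun g hg x hx => ?_⟩
  · simp only [LinearMap.smul_apply, LinearMap.sum_apply, LinearMap.proj_apply, Finset.sum_const, Finset.card_univ]
    rw [← Nat.card_eq_fintype_card, ← Nat.cast_smul_eq_nsmul F, smul_smul]
    exact (congrArg (· • v) (inv_mul_cancel₀ hi)).trans (one_smul _ _)
  · simp only [LinearMap.smul_apply, LinearMap.sum_apply, LinearMap.proj_apply]
    exact congrArg _ (Finset.sum_congr rfl fun w _ => e _ w.out.2)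
  · simp only [LinearMap.smul_apply, LinearMap.sum_apply, LinearMap.proj_apply, map_smul, map_sum]
  · simp only [LinearMap.smul_apply, LinearMap.sum_apply, LinearMap.proj_apply]
    refine congrArg _ (Fintype.sum_equiv (MulAction.toPerm (⟨x, hx⟩ : K)) _ _ fun w => ?_)
    obtain ⟨h, e⟩ := QuotientGroup.mk_out_eq_mul (H.subgroupOf K) ((⟨x, hx⟩ : K) * w.out)
    have k : MulAction.toPerm (⟨x, hx⟩ : K) w = QuotientGroup.mk ((⟨x, hx⟩ : K) * w.out) := by
      conv_lhs => rw [← QuotientGroup.out_eq' w]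
      rfl
    rw [k, e]
    exact (hg _ (mul_mem hx w.out.2) _ h.2 h.1.2).symm

theorem Ext.gasch [Finite G] (X : Ext ρ π ι) (le : H ≤ K) (hi : (H.relIndex K : F) ≠ 0) (h : Sp π H σ) :
    ∃ τ, Sp π K τ := by
  have _ := le
  obtain ⟨A, a1, -, a3, a4⟩ := coh1_avg (V := V) H K hi
  choose s0 hs0 using X.surj
  let o : G → G := fun k => (QuotientGroup.mk k : G ⧸ H).out
  have o1 : ∀ k, (o k)⁻¹ * k ∈ H := fun k => QuotientGroup.eq.1 (QuotientGroup.out_eq' _)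
  have o2 : ∀ k, ∀ y ∈ H, o (k * y) = o k := fun k y hy =>
    congrArg Quotient.out (QuotientGroup.mk_mul_of_mem k hy)
  obtain ⟨s, s1, s2⟩ : ∃ s : G → E, (∀ k, π (s k) = k) ∧ ∀ k, ∀ y ∈ H, s (k * y) = s k * σ y :=
    ⟨fun k => s0 (o k) * σ ((o k)⁻¹ * k), fun k => by rw [map_mul, hs0, h.sec _ (o1 k), mul_inv_cancel_left],
      fun k y hy => by
        show s0 (o (k * y)) * σ ((o (k * y))⁻¹ * (k * y)) = s0 (o k) * σ ((o k)⁻¹ * k) * σ y
        rw [o2 k y hy, ← mul_assoc, h.mul _ (o1 k) _ hy, mul_assoc]⟩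
  choose f hf using fun x y => X.diff (a := s x * s y) (b := s (x * y)) (by rw [map_mul, s1, s1, s1])
  have f1 : ∀ x y, ∀ k ∈ H, f x (y * k) = f x y := fun x y k hk => X.inj (mul_right_cancel (b := s (x * (y * k))) (by
    rw [← hf, s2 _ _ hk, ← mul_assoc, hf, ← mul_assoc x, s2 _ _ hk, mul_assoc]))
  have f2 : ∀ x y w, f x y + f (x * y) w = ρ x (f y w) + f x (y * w) := fun x y w =>
    X.inj (mul_right_cancel (b := s (x * y * w)) (by
      rw [X.add, X.add, mul_assoc, ← hf, ← mul_assoc, ← hf, mul_assoc, hf y w, ← mul_assoc, X.mul_i, s1, mul_assoc,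
        hf, mul_assoc, mul_assoc]))
  have f3 : ∀ x, ∀ y ∈ K, f x y + A (f (x * y)) = ρ x (A (f y)) + A (f x) := fun x y hy => by
    rw [← a1 (f x y), ← a3, ← a4 (f x) (fun y _ k hk _ => f1 x y k hk) y hy, ← map_add, ← map_add]
    exact congrArg A (funext (f2 x y))
  refine ⟨fun x => ι (-A (f x)) * s x, fun x _ => by rw [map_mul, X.pi, one_mul, s1], fun x _ y hy => ?_⟩
  rw [mul_assoc, ← mul_assoc (s x), X.mul_i, s1, mul_assoc, hf, ← mul_assoc, ← mul_assoc, ← X.add, ← X.add]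
  congr 2
  rw [map_neg, eq_sub_of_add_eq (f3 x y hy)]
  abel

theorem Ext.conj_of [Finite G] (X : Ext ρ π ι) (le : H ≤ K) (hi : (H.relIndex K : F) ≠ 0) (h : Sp π K σ)
    (h' : Sp π K τ) (a : Ag H σ τ) : ∃ v, Ag K τ (tw ι v σ) := by
  have _ := le
  obtain ⟨A, a1, a2, a3, a4⟩ := coh1_avg (V := V) H K hi
  have : ∀ x, ∃ v, x ∈ K → τ x = ι v * σ x := fun x => by
    by_cases hx : x ∈ K
    · exact (X.diff ((h'.sec x hx).trans (h.sec x hx).symm)).imp fun _ e _ => e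
    · exact ⟨0, fun k => absurd k hx⟩
  choose d hd using this
  have d1 : ∀ x ∈ K, ∀ y ∈ K, d (x * y) = d x + ρ x (d y) := fun x hx y hy =>
    X.inj (mul_right_cancel (b := σ (x * y)) (by
      rw [← hd _ (mul_mem hx hy), h'.mul x hx y hy, h.mul x hx y hy, hd x hx, hd y hy, X.add, mul_assoc,
        ← mul_assoc (σ x), X.mul_i, h.sec x hx, mul_assoc, mul_assoc]))
  have d2 : ∀ y ∈ K, ∀ k ∈ H, k ∈ K → d (y * k) = d y := fun y hy k hk kK => by
    have : d k = 0 := X.inj (mul_right_cancel (b := σ k) (by rw [← hd k kK, X.zero, one_mul, a k hk]))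
    rw [d1 y hy k kK, this, map_zero, add_zero]
  refine ⟨A d, fun x hx => ?_⟩
  rw [X.tw_eq _ (h.sec x hx), hd x hx]
  congr 2
  rw [eq_sub_iff_add_eq, ← a1 (d x), ← a3, ← map_add, ← a4 d d2 x hx]
  exact a2 _ _ fun w hw => (d1 x hx w hw).symm

theorem Ext.ag_of [Finite G] (X : Ext ρ π ι) (le : H ≤ K) (hi : (H.relIndex K : F) ≠ 0) (h : Sp π K σ)
    (h' : Sp π K τ) (n : NF ρ H) (a : Ag H σ τ) : Ag K σ τ := by
  obtain ⟨v, hv⟩ := X.conj_of le hi h h' a
  have : v = 0 := n v fun x hx => X.fix_of_eq h (le hx) ((a x hx).trans (hv x (le hx)))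
  rw [this, X.tw_zero] at hv
  exact hv.symm

theorem coh1_two_idx [Finite G] (h2 : (2 : F) ≠ 0) (hK : IsPGroup 2 K) : (((⊥ : Subgroup G).relIndex K : ℕ) : F) ≠ 0 := by
  have : Fact (Nat.Prime 2) := ⟨Nat.prime_two⟩
  obtain ⟨k, hk⟩ := IsPGroup.iff_card.1 hK
  rw [relIndex_bot_left, hk, Nat.cast_pow]
  exact pow_ne_zero _ (by exact_mod_cast h2)

theorem Ext.sp_two [Finite G] (X : Ext ρ π ι) (h2 : (2 : F) ≠ 0) (hK : IsPGroup 2 K) : ∃ σ, Sp π K σ :=
  X.gasch bot_le (coh1_two_idx h2 hK) sp_bot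

theorem Ext.rig_two [Finite G] (X : Ext ρ π ι) (h2 : (2 : F) ≠ 0) (hK : IsPGroup 2 K) : Rig π ι K :=
  fun _ _ h h' => X.conj_of bot_le (coh1_two_idx h2 hK) h h' fun x hx => by rw [mem_bot.1 hx, h.one, h'.one]

end Cfsg.Agent.BX
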