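import Cfsg.Agent.BX.Coh1

set_option autoImplicit false

namespace Cfsg.Agent.BX

open Subgroup H15
open Cfsg.Agent.CO1 (Cz mem_Cz)
open scoped commutatorElement

variable {G E : Type*} [Group G] [Group E] {F V : Type*} [Field F] [AddCommGroup V] [Module F V]
  {ρ : G →* Module.End F V} {π : E →* G} {ι : V → E} {H K N R : Subgroup G} {σ τ : G → E}

private theorem coh2_nm (hn : K ≤ normalizer (R : Set G)) {k r : G} (hk : k ∈ K) (hr : r ∈ R) : k * r * k⁻¹ ∈ R :=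
  (mem_normalizer_iff.1 (hn hk) r).1 hr

private theorem coh2_nm' (hn : K ≤ normalizer (R : Set G)) {k r : G} (hk : k ∈ K) (hr : r ∈ R) : k⁻¹ * r * k ∈ R := by
  simpa using coh2_nm hn (inv_mem hk) hr

private theorem coh2_fix (X : Ext ρ π ι) (le : R ≤ K) (hn : K ≤ normalizer (R : Set G))
    (h : Sp π K σ) (h' : Sp π K τ) (a : Ag R σ τ) {k : G} (hk : k ∈ K) {v : V} (e : σ k = ι v * τ k) :
    ∀ r ∈ R, ρ r v = v := fun r hr => by
  have m := coh2_nm' hn hk hr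
  refine X.fix_of_eq h' (le hr) ?_
  have e1 := h.cjm hk (le m)
  have e2 := h'.cjm hk (le m)
  rw [show k * (k⁻¹ * r * k) * k⁻¹ = r by group] at e1 e2
  rw [tw]
  nth_rewrite 2 [e2]
  rw [← a r hr, e1, e, a _ m]
  group

theorem Ext.normal_ag (X : Ext ρ π ι) (le : R ≤ K) (hn : K ≤ normalizer (R : Set G)) (n : NF ρ R)
    (h : Sp π K σ) (h' : Sp π K τ) (a : Ag R σ τ) : Ag K σ τ := fun k hk => by
  obtain ⟨v, e⟩ := X.diff ((h.sec k hk).trans (h'.sec k hk).symm)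
  rw [e, n v (coh2_fix X le hn h h' a hk e), X.zero, one_mul]

theorem Ext.exists_norm [Finite G] (X : Ext ρ π ι) (h2 : (2 : F) ≠ 0) (hR : IsPGroup 2 R) (le : R ≤ K)
    (hn : K ≤ normalizer (R : Set G)) (n : NF ρ R) : ∃ σ, Sp π K σ := by
  obtain ⟨σ, h⟩ := X.sp_two h2 hR
  have ex : ∀ k : G, ∃ e : E, k ∈ K → π e = k ∧ ∀ r ∈ R, e * σ r * e⁻¹ = σ (k * r * k⁻¹) := fun k => by
    by_cases hk : k ∈ K
    swap
    · exact ⟨1, fun h => absurd h hk⟩
    obtain ⟨e, rfl⟩ := X.surj k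
    obtain ⟨v, hv⟩ := X.rig_two h2 hR _ _ ((h.cj e).mono fun r hr => mem_cjs.2 (coh2_nm' hn hk hr)) h
    refine ⟨ι v * e, fun _ => ⟨by rw [map_mul, X.pi, one_mul], fun r hr => ?_⟩⟩
    rw [hv _ (coh2_nm hn hk hr), tw, cj, show (π e)⁻¹ * (π e * r * (π e)⁻¹) * π e = r by group]
    group
  choose s hs using ex
  refine ⟨s, fun k hk => (hs k hk).1, fun k hk l hl => ?_⟩
  obtain ⟨v, e⟩ := X.diff (a := s (k * l)) (b := s k * s l)
    (by rw [map_mul, (hs _ (mul_mem hk hl)).1, (hs k hk).1, (hs l hl).1])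
  have : v = 0 := n v fun r hr => by
    have m := coh2_nm' hn (mul_mem hk hl) hr
    refine X.fix_of_eq h hr ?_
    have e1 := (hs _ (mul_mem hk hl)).2 _ m
    have e2 := (hs l hl).2 _ m
    have e3 := (hs k hk).2 _ (coh2_nm hn hl m)
    rw [show k * l * ((k * l)⁻¹ * r * (k * l)) * (k * l)⁻¹ = r by group] at e1
    rw [show k * (l * ((k * l)⁻¹ * r * (k * l)) * l⁻¹) * k⁻¹ = r by group, ← e2] at e3
    rw [tw]
    nth_rewrite 2 [← e3]
    rw [← e1, e]
    group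
  rw [e, this, X.zero, one_mul]

private theorem coh2_comm {A B a b : E} (h1 : Commute A a) (h2 : Commute A b) (h3 : Commute A B)
    (h4 : Commute B a) (h5 : Commute B b) : A * a * (B * b) * (A * a)⁻¹ * (B * b)⁻¹ = a * b * a⁻¹ * b⁻¹ := by
  have e1 : A * a * (B * b) * (A * a)⁻¹ = a * (B * b) * a⁻¹ := by
    have : Commute A (a * (B * b) * a⁻¹) := (h1.mul_right (h3.mul_right h2)).mul_right h1.inv_right
    calc _ = A * (a * (B * b) * a⁻¹) * A⁻¹ := by group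
      _ = _ := by rw [this.eq]; group
  have : Commute B (a * b * a⁻¹ * b⁻¹) := ((h4.mul_right h5).mul_right h4.inv_right).mul_right h5.inv_right
  rw [e1, ← mul_assoc a B, ← h4.eq]
  calc _ = B * (a * b * a⁻¹ * b⁻¹) * B⁻¹ := by group
    _ = _ := by rw [this.eq]; group

theorem Ext.ag_comm (X : Ext ρ π ι) (le : N ≤ K) (hn : K ≤ normalizer (N : Set G)) (t : Triv ρ K N)
    (h : Sp π K σ) (h' : Sp π K τ) (a : Ag N σ τ) : Ag ⁅K, K⁆ σ τ := by
  have key : ⁅K, K⁆ ≤ eqS h h' := commutator_le.2 fun x hx y hy => by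
    have m := mul_mem (mul_mem hx hy) (inv_mem hx)
    refine ⟨mul_mem m (inv_mem hy), ?_⟩
    obtain ⟨v, ev⟩ := X.diff ((h.sec x hx).trans (h'.sec x hx).symm)
    obtain ⟨w, ew⟩ := X.diff ((h.sec y hy).trans (h'.sec y hy).symm)
    have fv := t v (coh2_fix X le hn h h' a hx ev)
    have fw := t w (coh2_fix X le hn h h' a hy ew)
    have c : ∀ u : V, (∀ k ∈ K, ρ k u = u) → ∀ e : E, π e ∈ K → Commute (ι u) e := fun u hu e he => by
      rw [Commute, SemiconjBy, X.mul_i e u, hu _ he]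
    have p : ∀ k ∈ K, π (τ k) ∈ K := fun k hk => by rwa [h'.sec k hk]
    rw [commutatorElement_def, h.mul _ m _ (inv_mem hy), h'.mul _ m _ (inv_mem hy), h.cjm hx hy, h'.cjm hx hy,
      h.inv hy, h'.inv hy, ev, ew]
    exact coh2_comm (c v fv _ (p x hx)) (c v fv _ (p y hy)) (c v fv _ (by rw [X.pi]; exact one_mem _))
      (c w fw _ (p x hx)) (c w fw _ (p y hy))
  exact fun x hx => (key hx).2

end Cfsg.Agent.BX
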