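import Cfsg.Agent.BX.Coh1

/-! Project BX: splitting over a group whose Sylow `p`-subgroups, `p ≥ 5`, have order at most `p`. -/

set_option autoImplicit false

namespace Cfsg.Agent.BX

open Subgroup H15
open Cfsg.Agent.CO1 (Cz mem_Cz)
open scoped commutatorElement

variable {G E : Type*} [Group G] [Group E] {F V : Type*} [Field F] [AddCommGroup V] [Module F V]
  {ρ : G →* Module.End F V} {π : E →* G} {ι : V → E} {H K N R : Subgroup G} {σ τ : G → E}

namespace Coh3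

/-- Burnside: a Sylow subgroup of odd prime order is not central in its normaliser -/
theorem exists_mv [Finite G] {p : ℕ} [hp : Fact p.Prime] (p2 : p ≠ 2) (hN : IsPGroup 2 N) (le : N ≤ K)
    (pf : K ≤ ⁅K, K⁆ ⊔ N) {g : K} (og : orderOf g = p) (hi : ¬ p ∣ (zpowers g).index) :
    ∃ h : K, ∃ k : ℕ, h * g * h⁻¹ = g ^ k ∧ g ^ k ≠ g := by
  have cP : Nat.card (zpowers g) = p := by rw [Nat.card_zpowers, og]
  let P : Sylow p K := (IsPGroup.of_card (n := 1) (cP.trans (pow_one p).symm)).toSylow hi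
  by_contra hc
  push Not at hc
  have hP : normalizer (P : Set K) ≤ centralizer (P : Set K) := fun h hh => by
    have hg : h * g * h⁻¹ ∈ zpowers g := (mem_set_normalizer_iff.1 hh g).1 (mem_zpowers g)
    obtain ⟨k, hk⟩ := mem_powers_iff_mem_zpowers.2 hg
    have e : h * g * h⁻¹ = g := hk.symm.trans (hc h k hk.symm)
    have c : Commute g h := (mul_inv_eq_iff_eq_mul.1 e).symm
    rintro x ⟨n, rfl⟩
    exact (c.zpow_left n).eq
  let f := MonoidHom.transferSylow P hP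
  have top : K ≤ f.ker.map K.subtype := pf.trans (sup_le (commutator_le.2 fun a ha b hb =>
    ⟨⁅(⟨a, ha⟩ : K), ⟨b, hb⟩⁆, by
      show f _ = 1
      rw [map_commutatorElement, commutatorElement_eq_one_iff_mul_comm]
      exact Subtype.ext (hP (le_normalizer (f ⟨b, hb⟩).2) _ (f ⟨a, ha⟩).2), rfl⟩) fun n hn =>
    ⟨⟨n, le hn⟩, by
      show f _ = 1
      obtain ⟨j, hj⟩ := hN ⟨n, hn⟩
      have h1 : f ⟨n, le hn⟩ ^ 2 ^ j = 1 := by
        rw [← map_pow, show (⟨n, le hn⟩ : K) ^ 2 ^ j = 1 from Subtype.ext (show n ^ 2 ^ j = 1 from congrArg Subtype.val hj), map_one]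
      have h2 : f ⟨n, le hn⟩ ^ p = 1 := by
        have := pow_card_eq_one' (x := f ⟨n, le hn⟩)
        rwa [show Nat.card P = p from cP] at this
      have : Nat.Coprime p (2 ^ j) := ((Nat.coprime_primes hp.out Nat.prime_two).2 p2).pow_right j
      exact orderOf_eq_one_iff.1 (Nat.eq_one_of_dvd_coprimes this (orderOf_dvd_of_pow_eq_one h2)
        (orderOf_dvd_of_pow_eq_one h1)), rfl⟩)
  obtain ⟨x, hx, e⟩ := top g.2
  obtain rfl : x = g := Subtype.ext e
  have := (MonoidHom.ker_transferSylow_isComplement' P hP).disjoint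
  have h1 : x = 1 := mem_bot.1 (this.le_bot ⟨hx, mem_zpowers x⟩)
  rw [h1, orderOf_one] at og
  exact hp.out.one_lt.ne og

/-- the elements over `K` normalising the splitting over `N` -/
def Kh (h : Sp π N σ) (hn : K ≤ normalizer (N : Set G)) : Subgroup E where
  carrier := {e | π e ∈ K ∧ ∀ r ∈ N, e * σ r * e⁻¹ = σ (π e * r * (π e)⁻¹)}
  one_mem' := ⟨by rw [map_one]; exact one_mem _, fun r _ => by simp⟩
  mul_mem' := fun {a b} ⟨a1, a2⟩ ⟨b1, b2⟩ => ⟨by rw [map_mul]; exact mul_mem a1 b1, fun r hr => by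
    rw [show a * b * σ r * (a * b)⁻¹ = a * (b * σ r * b⁻¹) * a⁻¹ by group, b2 r hr,
      a2 _ ((mem_normalizer_iff.1 (hn b1) r).1 hr), map_mul]
    congr 1; group⟩
  inv_mem' := fun {a} ⟨a1, a2⟩ => ⟨by rw [map_inv]; exact inv_mem a1, fun r hr => by
    have := a2 _ ((mem_normalizer_iff''.1 (hn a1) r).1 hr)
    rw [show π a * ((π a)⁻¹ * r * π a) * (π a)⁻¹ = r by group] at this
    rw [← this, map_inv]; group⟩

theorem Kh_lift [Finite G] (X : Ext ρ π ι) (h2 : (2 : F) ≠ 0) (hN : IsPGroup 2 N) (h : Sp π N σ)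
    (hn : K ≤ normalizer (N : Set G)) {x : G} (hx : x ∈ K) : ∃ e ∈ Kh h hn, π e = x := by
  obtain ⟨e, rfl⟩ := X.surj x
  have h' : Sp π N (cj π e σ) :=
    (h.cj e).mono fun a ha => mem_cjs.2 ((mem_normalizer_iff''.1 (hn hx) a).1 ha)
  obtain ⟨v, hv⟩ := X.rig_two h2 hN _ _ h' h
  have pe : π (ι v * e) = π e := by rw [map_mul, X.pi, one_mul]
  refine ⟨ι v * e, ⟨pe ▸ hx, fun r hr => ?_⟩, pe⟩
  rw [pe, hv _ ((mem_normalizer_iff.1 (hn hx) r).1 hr), tw, cj,
    show (π e)⁻¹ * (π e * r * (π e)⁻¹) * π e = r by group]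
  group

theorem Kh_cen (X : Ext ρ π ι) (h : Sp π N σ) (hn : K ≤ normalizer (N : Set G)) (t : Triv ρ K N) {a : V}
    (ha : ι a ∈ Kh h hn) {e : E} (he : e ∈ Kh h hn) : e * ι a * e⁻¹ = ι a := by
  rw [X.conj, t a (fun r hr => X.fix_of_eq h hr ?_) _ he.1]
  rw [tw, ha.2 r hr, X.pi, one_mul, inv_one, mul_one]

theorem i_nsmul (X : Ext ρ π ι) (v : V) (n : ℕ) : ι ((n : F) • v) = ι v ^ n := by
  induction n with
  | zero => rw [Nat.cast_zero, zero_smul, X.zero, pow_zero]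
  | succ n ih => rw [Nat.cast_succ, add_smul, one_smul, X.add, ih, pow_succ]

theorem sp_zpowers [Finite G] {e : E} (h : e ^ orderOf (π e) = 1) : ∃ σ, Sp π (zpowers (π e)) σ := by
  have : ∀ x ∈ zpowers (π e), ∃ n : ℕ, π e ^ n = x := fun x hx => mem_powers_iff_mem_zpowers.2 hx
  choose! n hn using this
  refine ⟨fun x => e ^ n x, fun x hx => by rw [map_pow, hn x hx], fun x hx y hy => ?_⟩
  rw [← pow_add]
  refine pow_eq_pow_iff_modEq.2 ((pow_eq_pow_iff_modEq.1 ?_).of_dvd (orderOf_dvd_of_pow_eq_one h))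
  rw [pow_add, hn x hx, hn y hy, hn _ (mul_mem hx hy)]

end Coh3

theorem Ext.exists_cen [Finite G] (X : Ext ρ π ι) (h2 : (2 : F) ≠ 0) (h3 : (3 : F) ≠ 0) (hN : IsPGroup 2 N)
    (le : N ≤ K) (hn : K ≤ normalizer (N : Set G)) (t : Triv ρ K N) (pf : K ≤ ⁅K, K⁆ ⊔ N)
    (sq : ∀ p : ℕ, p.Prime → 5 ≤ p → ¬ p ^ 2 ∣ Nat.card K) : ∃ σ, Sp π K σ := by
  by_cases h0 : ∀ p : ℕ, p.Prime → p ∣ Nat.card K → (p : F) ≠ 0
  · refine X.gasch bot_le ?_ sp_bot
    rw [relIndex_bot_left]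
    exact cast_ne Nat.card_pos.ne' h0
  push Not at h0
  obtain ⟨p, hp, hd, h0⟩ := h0
  haveI := Fact.mk hp
  haveI : CharP F p := (CharP.charP_iff_prime_eq_zero hp).2 h0
  have p2 : p ≠ 2 := by rintro rfl; exact h2 (by exact_mod_cast h0)
  have p3 : p ≠ 3 := by rintro rfl; exact h3 (by exact_mod_cast h0)
  have p5 : 5 ≤ p := hp.five_le_of_ne_two_of_ne_three p2 p3
  obtain ⟨g, og⟩ := exists_prime_orderOf_dvd_card' (G := K) p hd
  have hi : ¬ p ∣ (zpowers g).index := fun d => sq p hp p5 (by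
    rw [← (zpowers g).card_mul_index, Nat.card_zpowers, og, pow_two]
    exact Nat.mul_dvd_mul_left p d)
  have hr : (zpowers (g : G)).relIndex K = (zpowers g).index := by
    rw [relIndex, ← K.coe_subtype, ← MonoidHom.map_zpowers, subgroupOf, comap_map_eq_self_of_injective K.subtype_injective]
  obtain ⟨h, k, hk, hk1⟩ := Coh3.exists_mv p2 hN le pf og hi
  obtain ⟨σ, hσ⟩ := X.sp_two h2 hN
  obtain ⟨e, he, pe⟩ := Coh3.Kh_lift X h2 hN hσ hn g.2
  obtain ⟨u, hu, pu⟩ := Coh3.Kh_lift X h2 hN hσ hn h.2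
  have og' : orderOf (π e) = p := by rw [pe, orderOf_coe, og]
  obtain ⟨a, ha⟩ := (X.ker (e ^ p)).1 (by rw [map_pow, ← og', pow_orderOf_eq_one])
  obtain ⟨b, hb⟩ := X.diff (a := u * e * u⁻¹) (b := e ^ k) (by
    rw [map_mul, map_mul, map_inv, map_pow, pe, pu]
    exact congrArg Subtype.val hk)
  have ma : ι a ∈ Coh3.Kh hσ hn := ha ▸ pow_mem he p
  have mb : ι b ∈ Coh3.Kh hσ hn := by
    rw [← mul_inv_eq_iff_eq_mul] at hb
    exact hb ▸ mul_mem (mul_mem (mul_mem hu he) (inv_mem hu)) (inv_mem (pow_mem he k))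
  have cb : Commute (ι b) (e ^ k) := (mul_inv_eq_iff_eq_mul.1 (Coh3.Kh_cen X hσ hn t mb (pow_mem he k))).symm
  have e1 : ι a = ι ((k : F) • a) := by
    rw [← Coh3.Kh_cen X hσ hn t ma hu, Coh3.i_nsmul X, ha, ← conj_pow, hb, cb.mul_pow, ← Coh3.i_nsmul X, h0,
      zero_smul, X.zero, one_mul, ← pow_mul, ← pow_mul, mul_comm]
  have k1 : (k : F) - 1 ≠ 0 := fun h' => hk1 (by
    have : k ≡ 1 [MOD p] := (CharP.natCast_eq_natCast F p).1 (by rw [Nat.cast_one]; exact sub_eq_zero.1 h')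
    rw [← og] at this
    exact (pow_eq_pow_iff_modEq.2 this).trans (pow_one g))
  have a0 : a = 0 := (smul_eq_zero.1 (show ((k : F) - 1) • a = 0 by
    rw [sub_smul, one_smul, ← X.inj e1, sub_self])).resolve_left k1
  obtain ⟨τ, hτ⟩ := Coh3.sp_zpowers (π := π) (e := e) (by rw [og', ← ha, a0, X.zero])
  rw [pe] at hτ
  refine X.gasch (zpowers_le.2 g.2) ?_ hτ
  rw [hr, Ne, CharP.cast_eq_zero_iff F p]
  exact hi

end Cfsg.Agent.BX
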