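/-
Project BX.  Sections of an extension of a group by a module.
-/
import Cfsg.Agent.CO1.Co
import Cfsg.Agent.H15.LXMore

set_option autoImplicit false

namespace Cfsg.Agent.BX

open Subgroup H15
open Cfsg.Agent.CO1 (Cz mem_Cz)

variable {G E : Type*} [Group G] [Group E] {F V : Type*} [Field F] [AddCommGroup V] [Module F V]

/-- `E` is an extension of `G` by the module `V` -/
structure Ext (ρ : G →* Module.End F V) (π : E →* G) (ι : V → E) : Prop where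
  surj : Function.Surjective π
  add : ∀ v w, ι (v + w) = ι v * ι w
  inj : Function.Injective ι
  ker : ∀ e, π e = 1 ↔ ∃ v, ι v = e
  conj : ∀ e v, e * ι v * e⁻¹ = ι (ρ (π e) v)

/-- `σ` is a splitting over the subgroup `H` -/
structure Sp (π : E →* G) (H : Subgroup G) (σ : G → E) : Prop where
  sec : ∀ h ∈ H, π (σ h) = h
  mul : ∀ h ∈ H, ∀ k ∈ H, σ (h * k) = σ h * σ k

/-- no fixed vector -/
def NF (ρ : G →* Module.End F V) (H : Subgroup G) : Prop := ∀ v, (∀ h ∈ H, ρ h v = v) → v = 0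

/-- `K` fixes the vectors fixed by `N` -/
def Triv (ρ : G →* Module.End F V) (K N : Subgroup G) : Prop :=
  ∀ v, (∀ n ∈ N, ρ n v = v) → ∀ k ∈ K, ρ k v = v

/-- agreement on a subgroup -/
def Ag (H : Subgroup G) (σ τ : G → E) : Prop := ∀ h ∈ H, σ h = τ h

/-- conjugation by a vector -/
def tw (ι : V → E) (v : V) (σ : G → E) : G → E := fun h => ι v * σ h * (ι v)⁻¹

/-- transport by an element of the extension -/
def cj (π : E →* G) (e : E) (σ : G → E) : G → E := fun h => e * σ ((π e)⁻¹ * h * π e) * e⁻¹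

/-- any two splittings over `H` are conjugate -/
def Rig (π : E →* G) (ι : V → E) (H : Subgroup G) : Prop :=
  ∀ σ τ, Sp π H σ → Sp π H τ → ∃ v, Ag H τ (tw ι v σ)

/-- the pair `(x, x')` is conjugate to `(t, a)` -/
def Adj (t a x x' : G) : Prop := ∃ k, k * t * k⁻¹ = x ∧ k * a * k⁻¹ = x'

/-- the local data that give compatible splittings -/
structure LC (ρ : G →* Module.End F V) (z t : G) (G2 G3 R3 S L0 N2 K0 N0 : Subgroup G) : Prop where
  S2 : IsPGroup 2 S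
  Sle : S ≤ Cz z ⊓ Cz t ⊓ G2 ⊓ G3
  Snf : NF ρ S
  R2 : IsPGroup 2 R3
  Rle : R3 ≤ G2 ⊓ G3
  Rn : G3 ≤ normalizer (R3 : Set G)
  Rnf : NF ρ R3
  i2 : (Cz z).relIndex G2 ∣ 6
  i3 : G2.relIndex (Cz z ⊓ Cz t ⊓ G3) ∣ 6
  Lle : L0 ≤ Cz z ⊓ G2
  Li : L0.relIndex (Cz z ⊓ G2) ∣ 2
  N22 : IsPGroup 2 N2
  N2le : N2 ≤ L0
  N2n : L0 ≤ normalizer (N2 : Set G)
  Lt : Triv ρ L0 N2
  Lp : L0 ≤ ⁅L0, L0⁆ ⊔ N2
  Lsq : ∀ p : ℕ, p.Prime → 5 ≤ p → ¬ p ^ 2 ∣ Nat.card L0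
  Kle : K0 ≤ Cz z ⊓ Cz t ⊓ G2
  Ksup : Cz z ⊓ Cz t ⊓ G2 ≤ K0 ⊔ S
  N0le : N0 ≤ S ⊓ K0
  N0n : K0 ≤ normalizer (N0 : Set G)
  Kt : Triv ρ K0 N0
  Kp : K0 ≤ ⁅K0, K0⁆ ⊔ N0
  i12 : ∀ p : ℕ, p.Prime → p ∣ G2.relIndex (Cz z ⊓ Cz t) → p = 2 ∨ p = 3 ∨ p = 11
  i1 : ¬ 11 ∣ G2.relIndex (Cz z)

variable {ρ : G →* Module.End F V} {π : E →* G} {ι : V → E} {H K : Subgroup G} {σ τ μ : G → E}

theorem NF.mono (h : NF ρ H) (le : H ≤ K) : NF ρ K := fun v hv => h v fun x hx => hv x (le hx)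

theorem ap_mul (ρ : G →* Module.End F V) (a b : G) (v : V) : ρ (a * b) v = ρ a (ρ b v) := by
  rw [map_mul]; rfl

theorem ap_one (ρ : G →* Module.End F V) (v : V) : ρ 1 v = v := by rw [map_one]; rfl

theorem NF.cjs (h : NF ρ H) (g : G) : NF ρ (cjs g H) := fun v hv => by
  have : ρ g⁻¹ v = 0 := h _ fun x hx => by
    have := hv (g * x * g⁻¹) (mem_cjs.2 (by simpa [mul_assoc] using hx))
    rw [← ap_mul, show x * g⁻¹ = g⁻¹ * (g * x * g⁻¹) by group, ap_mul, this]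
  rw [← ap_one ρ v, ← mul_inv_cancel g, ap_mul, this, map_zero]

theorem Ag.mono (h : Ag K σ τ) (le : H ≤ K) : Ag H σ τ := fun x hx => h x (le hx)

theorem Ag.symm (h : Ag K σ τ) : Ag K τ σ := fun x hx => (h x hx).symm

theorem Ag.trans (h : Ag K σ τ) (h' : Ag K τ μ) : Ag K σ μ := fun x hx => (h x hx).trans (h' x hx)

theorem Sp.mono (h : Sp π K σ) (le : H ≤ K) : Sp π H σ :=
  ⟨fun x hx => h.sec x (le hx), fun x hx y hy => h.mul x (le hx) y (le hy)⟩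

theorem Sp.one (h : Sp π K σ) : σ 1 = 1 := by
  have := h.mul 1 (one_mem _) 1 (one_mem _)
  rw [mul_one] at this
  exact left_eq_mul.1 this

theorem Sp.inv (h : Sp π K σ) {x : G} (hx : x ∈ K) : σ x⁻¹ = (σ x)⁻¹ :=
  eq_inv_of_mul_eq_one_left (by rw [← h.mul _ (inv_mem hx) _ hx, inv_mul_cancel, h.one])

theorem Sp.cjm (h : Sp π K σ) {x y : G} (hx : x ∈ K) (hy : y ∈ K) : σ (x * y * x⁻¹) = σ x * σ y * (σ x)⁻¹ := by
  rw [h.mul _ (mul_mem hx hy) _ (inv_mem hx), h.mul _ hx _ hy, h.inv hx]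

theorem Sp.pow (h : Sp π K σ) {x : G} (hx : x ∈ K) (n : ℕ) : σ (x ^ n) = σ x ^ n := by
  induction n with
  | zero => rw [pow_zero, pow_zero, h.one]
  | succ n ih => rw [pow_succ, pow_succ, h.mul _ (pow_mem hx n) _ hx, ih]

theorem sp_bot : Sp π ⊥ fun _ => 1 :=
  ⟨fun x hx => by rw [mem_bot.1 hx, map_one], fun _ _ _ _ => (mul_one _).symm⟩

/-- the subgroup on which two splittings agree -/
def eqS (h : Sp π K σ) (h' : Sp π K τ) : Subgroup G where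
  carrier := {x | x ∈ K ∧ σ x = τ x}
  one_mem' := ⟨one_mem _, h.one.trans h'.one.symm⟩
  mul_mem' := fun ⟨a, b⟩ ⟨c, d⟩ => ⟨mul_mem a c, by rw [h.mul _ a _ c, h'.mul _ a _ c, b, d]⟩
  inv_mem' := fun ⟨a, b⟩ => ⟨inv_mem a, by rw [h.inv a, h'.inv a, b]⟩

theorem Sp.ag_sup (h : Sp π K σ) (h' : Sp π K τ) {A B : Subgroup G} (hA : A ≤ K) (hB : B ≤ K) (a : Ag A σ τ)
    (b : Ag B σ τ) : Ag (A ⊔ B) σ τ := fun _ hx =>
  ((sup_le (fun y hy => ⟨hA hy, a y hy⟩) fun y hy => ⟨hB hy, b y hy⟩ : A ⊔ B ≤ eqS h h') hx).2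

theorem Sp.cj (h : Sp π K σ) (e : E) : Sp π (cjs (π e) K) (cj π e σ) :=
  ⟨fun x hx => by
    rw [BX.cj, map_mul, map_mul, map_inv, h.sec _ (mem_cjs.1 hx)]; group,
  fun x hx y hy => by
    rw [BX.cj, BX.cj, BX.cj, show (π e)⁻¹ * (x * y) * π e = (π e)⁻¹ * x * π e * ((π e)⁻¹ * y * π e) by group,
      h.mul _ (mem_cjs.1 hx) _ (mem_cjs.1 hy)]; group⟩

theorem cjs_Cz (g x : G) : cjs g (Cz x) = Cz (g * x * g⁻¹) := by
  ext a
  rw [mem_cjs, mem_Cz, mem_Cz]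
  constructor <;> intro h
  · calc _ = g * (g⁻¹ * a * g * x) * g⁻¹ := by group
      _ = _ := by rw [h]; group
  · calc _ = g⁻¹ * (a * (g * x * g⁻¹)) * g := by group
      _ = _ := by rw [h]; group

theorem cjs_inf' (g : G) (A B : Subgroup G) : cjs g (A ⊓ B) = cjs g A ⊓ cjs g B := by
  ext a; simp only [mem_cjs, mem_inf]

namespace Ext

variable (X : Ext ρ π ι)
include X

theorem zero : ι 0 = 1 := by
  have := X.add 0 0
  rw [add_zero] at this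
  exact left_eq_mul.1 this

theorem neg (v : V) : ι (-v) = (ι v)⁻¹ := eq_inv_of_mul_eq_one_left (by rw [← X.add, neg_add_cancel, X.zero])

theorem pi (v : V) : π (ι v) = 1 := (X.ker _).2 ⟨v, rfl⟩

theorem mul_i (e : E) (v : V) : e * ι v = ι (ρ (π e) v) * e := by rw [← X.conj, inv_mul_cancel_right]

theorem diff {a b : E} (h : π a = π b) : ∃ v, a = ι v * b := by
  obtain ⟨v, hv⟩ := (X.ker (a * b⁻¹)).1 (by rw [map_mul, map_inv, h, mul_inv_cancel])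
  exact ⟨v, by rw [hv, inv_mul_cancel_right]⟩

theorem tw_eq (v : V) {x : G} (h : π (σ x) = x) : tw ι v σ x = ι (v - ρ x v) * σ x := by
  rw [tw, ← X.neg, mul_assoc, X.mul_i, h, ← mul_assoc, ← X.add, map_neg, sub_eq_add_neg]

theorem sp_tw (h : Sp π K σ) (v : V) : Sp π K (tw ι v σ) :=
  ⟨fun x hx => by rw [tw, map_mul, map_mul, map_inv, X.pi, h.sec x hx]; group,
  fun x hx y hy => by rw [tw, tw, tw, h.mul x hx y hy]; group⟩

/-- two twists that agree differ by a fixed vector -/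
theorem fix_of_tw (h : Sp π K σ) {v w : V} {x : G} (hx : x ∈ K) (e : tw ι v σ x = tw ι w σ x) :
    ρ x (v - w) = v - w := by
  rw [X.tw_eq v (h.sec x hx), X.tw_eq w (h.sec x hx)] at e
  have := X.inj (mul_right_cancel e)
  rw [map_sub]
  exact (sub_eq_sub_iff_sub_eq_sub.1 this).symm

theorem tw_zero (σ : G → E) : tw ι 0 σ = σ := by ext x; rw [tw, X.zero]; group

theorem fix_of_eq (h : Sp π K σ) {v : V} {x : G} (hx : x ∈ K) (e : σ x = tw ι v σ x) : ρ x v = v := by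
  have := X.fix_of_tw h (v := v) (w := 0) hx (by rw [X.tw_zero, ← e])
  rwa [sub_zero] at this

theorem ag_of_rig (r : Rig π ι K) (h : Sp π K σ) (h' : Sp π K τ) (le : H ≤ K) (n : NF ρ H) (a : Ag H σ τ) :
    Ag K σ τ := by
  obtain ⟨v, hv⟩ := r σ τ h h'
  have : v = 0 := n v fun x hx => X.fix_of_eq h (le hx) ((a x hx).trans (hv x (le hx)))
  rw [this, X.tw_zero] at hv
  exact hv.symm

end Ext

theorem cast_ne {n : ℕ} (h0 : n ≠ 0) (h : ∀ p : ℕ, p.Prime → p ∣ n → (p : F) ≠ 0) : (n : F) ≠ 0 := by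
  induction n using Nat.recOnMul with
  | zero => exact absurd rfl h0
  | one => simp
  | prime p hp => exact h p hp dvd_rfl
  | mul a b ha hb =>
    rw [Nat.cast_mul]
    exact mul_ne_zero (ha (left_ne_zero_of_mul h0) fun p hp d => h p hp (d.mul_right _))
      (hb (right_ne_zero_of_mul h0) fun p hp d => h p hp (d.mul_left _))

theorem cast_six {n : ℕ} (h2 : (2 : F) ≠ 0) (h3 : (3 : F) ≠ 0) (h : n ∣ 6) : (n : F) ≠ 0 := fun e => by
  obtain ⟨k, hk⟩ := h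
  have : ((6 : ℕ) : F) = 0 := by rw [hk, Nat.cast_mul, e, zero_mul]
  exact mul_ne_zero h2 h3 (by rw [← this]; norm_num)

end Cfsg.Agent.BX
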