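import Cfsg.Agent.BX.Three
import Cfsg.Agent.BX.BN1
import Cfsg.Agent.BX.BN2

set_option autoImplicit false

namespace Cfsg.Agent.BX

open Subgroup H15
open Cfsg.Agent.CO1 (Cz mem_Cz)
open scoped commutatorElement

variable {G E : Type*} [Group G] [Group E] [Finite G] {F V : Type*} [Field F] [AddCommGroup V] [Module F V]
  {ρ : G →* Module.End F V} {π : E →* G} {ι : V → E} {z t : G} {G2 G3 R3 S L0 N2 K0 N0 : Subgroup G}

theorem LC.loc (L : LC ρ z t G2 G3 R3 S L0 N2 K0 N0) (X : Ext ρ π ι) (h2 : (2 : F) ≠ 0) (h3 : (3 : F) ≠ 0)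
    {M : Subgroup G} (hM : M ≤ Cz t) (hi : M.relIndex (Cz t) = 2) (P : BNPair M) (hf : P.S.Finite)
    (h4 : P.S.ncard ≤ 4) (U : Subgroup M) (hB : P.B ≤ normalizer (U : Set M))
    (hU : normalizer (U : Set M) ≤ (Cz z ⊓ G2 ⊓ G3).subgroupOf M)
    (nU : ¬ (Cz z ⊓ G2 ⊓ G3).subgroupOf M ≤ normalizer (U : Set M)) (n1 : ¬ M ≤ Cz z)
    (s2 : M ≤ M ⊓ Cz z ⊔ M ⊓ G2) (s3 : M ≤ M ⊓ Cz z ⊔ M ⊓ G3) (n23 : ¬ M ⊓ G2 ≤ G3) (n32 : ¬ M ⊓ G3 ≤ G2)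
    (hD : Cz z ⊓ Cz t ≤ M ⊓ Cz z ⊔ S) : (∃ σ, Sp π (Cz t) σ) ∧ Rig π ι (Cz z ⊓ Cz t) := by
  classical
  have top : ∀ A B : Subgroup G, M ≤ M ⊓ A ⊔ M ⊓ B → A.subgroupOf M ⊔ B.subgroupOf M = ⊤ := fun A B h => by
    refine eq_top_iff.2 ((map_le_map_iff_of_injective M.subtype_injective).1 ?_)
    rw [Subgroup.map_sup, subgroupOf_map_subtype, subgroupOf_map_subtype, ← MonoidHom.range_eq_map, range_subtype,
      inf_comm A, inf_comm B]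
    exact h
  have b0 := hB.trans hU
  have b1 : P.B ≤ (Cz z).subgroupOf M := fun x hx => (b0 hx).1.1
  have b2 : P.B ≤ G2.subgroupOf M := fun x hx => (b0 hx).1.2
  have b3 : P.B ≤ G3.subgroupOf M := fun x hx => (b0 hx).2
  obtain ⟨l1, l2⟩ := bn_lat P hf h4 b1 b2 b3 (fun e => n1 (subgroupOf_eq_top.1 e)) (top _ _ s2) (top _ _ s3)
    (fun e => n23 fun x hx => e (x := ⟨x, hx.1⟩) hx.2) (fun e => n32 fun x hx => e (x := ⟨x, hx.1⟩) hx.2)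
    (fun e => nU fun x hx => hB (e hx))
  refine ⟨?_, L.rig X h2 h3 (hD.trans (sup_le (fun x hx => ?_) (L.Sle.trans (inf_le_left.trans le_sup_left))))⟩
  · obtain ⟨σ1, σ2, σ3, p1, p2, p3, a12, a13, a23⟩ := L.three X h2 h3
    obtain ⟨φ, hφ⟩ := bn_amal (I := Fin 3) P ![(Cz z).subgroupOf M, G2.subgroupOf M, G3.subgroupOf M]
      ![fun a => σ1 a, fun a => σ2 a, fun a => σ3 a]
      (fun i => by fin_cases i; exacts [b1, b2, b3])
      (fun i => by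
        fin_cases i
        exacts [fun a ha b hb => p1.mul _ ⟨ha, hM a.2⟩ _ ⟨hb, hM b.2⟩, fun a ha b hb => p2.mul _ ha _ hb,
          fun a ha b hb => p3.mul _ ha _ hb])
      (fun i j => by
        fin_cases i <;> fin_cases j
        exacts [fun _ _ _ => rfl, fun a ha hb => a12 _ ⟨⟨ha, hM a.2⟩, hb⟩, fun a ha hb => a13 _ ⟨⟨ha, hM a.2⟩, hb⟩,
          fun a ha hb => (a12 _ ⟨⟨hb, hM a.2⟩, ha⟩).symm, fun _ _ _ => rfl, fun a ha hb => a23 _ ⟨ha, hb⟩,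
          fun a ha hb => (a13 _ ⟨⟨hb, hM a.2⟩, ha⟩).symm, fun a ha hb => (a23 _ ⟨hb, ha⟩).symm, fun _ _ _ => rfl])
      (fun s hs s' hs' => by
        rcases l1 s hs s' hs' with h | h | h
        exacts [⟨0, h⟩, ⟨1, h⟩, ⟨2, h⟩])
    have sec : (⊤ : Subgroup M) ≤ (π.comp φ).eqLocus M.subtype := by
      rw [← top _ _ s2]
      exact sup_le (fun a ha => (congrArg π (hφ 0 a ha)).trans (p1.sec _ ⟨ha, hM a.2⟩))
        fun a ha => (congrArg π (hφ 1 a ha)).trans (p2.sec _ ha)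
    refine X.gasch (σ := fun x => if h : x ∈ M then φ ⟨x, h⟩ else 1) hM (by rw [hi]; exact_mod_cast h2)
      ⟨fun x hx => ?_, fun x hx y hy => ?_⟩
    · rw [dif_pos hx]
      exact sec (mem_top (⟨x, hx⟩ : M))
    · rw [dif_pos hx, dif_pos hy, dif_pos (mul_mem hx hy), ← map_mul]
      rfl
  · have := mem_map_of_mem M.subtype (l2 (x := ⟨x, hx.1⟩) hx.2)
    rw [Subgroup.map_sup] at this
    refine SetLike.le_def.1 (sup_le_sup ?_ ?_) this <;> rintro _ ⟨a, ha, rfl⟩ <;> exact ⟨⟨ha.1, hM a.2⟩, ha.2⟩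

end Cfsg.Agent.BX
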