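import Cfsg.Agent.BX.Coh2
import Cfsg.Agent.BX.Coh3

set_option autoImplicit false

namespace Cfsg.Agent.BX

open Subgroup H15
open Cfsg.Agent.CO1 (Cz mem_Cz)
open scoped commutatorElement

variable {G E : Type*} [Group G] [Group E] [Finite G] {F V : Type*} [Field F] [AddCommGroup V] [Module F V]
  {ρ : G →* Module.End F V} {π : E →* G} {ι : V → E} {z t : G} {G2 G3 R3 S L0 N2 K0 N0 : Subgroup G}

omit [Finite G] in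
theorem LC.ag12 (L : LC ρ z t G2 G3 R3 S L0 N2 K0 N0) (X : Ext ρ π ι) {σ τ : G → E}
    (h : Sp π (Cz z ⊓ Cz t ⊓ G2) σ) (h' : Sp π (Cz z ⊓ Cz t ⊓ G2) τ) (a : Ag S σ τ) :
    Ag (Cz z ⊓ Cz t ⊓ G2) σ τ := by
  have n : N0 ≤ K0 := L.N0le.trans inf_le_right
  have a0 : Ag N0 σ τ := a.mono (L.N0le.trans inf_le_left)
  have a1 := X.ag_comm n L.N0n L.Kt (h.mono L.Kle) (h'.mono L.Kle) a0
  have c : ⁅K0, K0⁆ ≤ K0 := commutator_le.2 fun x hx y hy =>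
    mul_mem (mul_mem (mul_mem hx hy) (inv_mem hx)) (inv_mem hy)
  have a2 : Ag K0 σ τ := ((h.mono L.Kle).ag_sup (h'.mono L.Kle) c n a1 a0).mono L.Kp
  exact (h.ag_sup h' L.Kle (L.Sle.trans inf_le_left) a2 a).mono L.Ksup

theorem LC.ag13 (L : LC ρ z t G2 G3 R3 S L0 N2 K0 N0) (X : Ext ρ π ι) (h2 : (2 : F) ≠ 0) (h3 : (3 : F) ≠ 0)
    {σ τ : G → E} (h : Sp π (Cz z ⊓ Cz t ⊓ G3) σ) (h' : Sp π (Cz z ⊓ Cz t ⊓ G3) τ)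
    (a : Ag (G2 ⊓ (Cz z ⊓ Cz t ⊓ G3)) σ τ) : Ag (Cz z ⊓ Cz t ⊓ G3) σ τ :=
  X.ag_of inf_le_right (by rw [inf_relIndex_right]; exact cast_six h2 h3 L.i3) h h'
    (L.Snf.mono fun _ hx => ⟨(L.Sle hx).1.2, (L.Sle hx).1.1, (L.Sle hx).2⟩) a

theorem LC.ag23 (L : LC ρ z t G2 G3 R3 S L0 N2 K0 N0) (X : Ext ρ π ι) (h2 : (2 : F) ≠ 0)
    {σ τ : G → E} (h : Sp π (G2 ⊓ G3) σ) (h' : Sp π (G2 ⊓ G3) τ) (a : Ag S σ τ) : Ag (G2 ⊓ G3) σ τ := by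
  have s : S ≤ G2 ⊓ G3 := fun _ hx => ⟨(L.Sle hx).1.2, (L.Sle hx).2⟩
  have p : IsPGroup 2 (R3 ⊔ S : Subgroup G) :=
    L.R2.to_sup_of_normal_left' L.S2 ((s.trans inf_le_right).trans L.Rn)
  have le : R3 ⊔ S ≤ G2 ⊓ G3 := sup_le L.Rle s
  have a1 := X.ag_of_rig (X.rig_two h2 p) (h.mono le) (h'.mono le) le_sup_right L.Snf a
  exact X.normal_ag L.Rle (inf_le_right.trans L.Rn) L.Rnf h h' (a1.mono le_sup_left)

theorem LC.three (L : LC ρ z t G2 G3 R3 S L0 N2 K0 N0) (X : Ext ρ π ι) (h2 : (2 : F) ≠ 0) (h3 : (3 : F) ≠ 0) :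
    ∃ σ1 σ2 σ3, Sp π (Cz z ⊓ Cz t) σ1 ∧ Sp π G2 σ2 ∧ Sp π G3 σ3 ∧ Ag (Cz z ⊓ Cz t ⊓ G2) σ1 σ2 ∧
      Ag (Cz z ⊓ Cz t ⊓ G3) σ1 σ3 ∧ Ag (G2 ⊓ G3) σ2 σ3 := by
  obtain ⟨σ3, s3⟩ := X.exists_norm h2 L.R2 (L.Rle.trans inf_le_right) L.Rn L.Rnf
  obtain ⟨σ0, s0⟩ := X.exists_cen h2 h3 L.N22 L.N2le L.N2n L.Lt L.Lp L.Lsq
  obtain ⟨σ0', s0'⟩ := X.gasch L.Lle (cast_six h2 h3 (L.Li.trans (by norm_num))) s0
  obtain ⟨σ2, s2⟩ := X.gasch inf_le_right (by rw [inf_relIndex_right]; exact cast_six h2 h3 L.i2) s0'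
  obtain ⟨σ1, s1⟩ : ∃ σ1, Sp π (Cz z ⊓ Cz t) σ1 := by
    by_cases h11 : ((11 : ℕ) : F) = 0
    · have c : ringChar F = 11 := by
        have := (ringChar.spec F 11).1 h11
        rcases (Nat.dvd_prime (by norm_num)).1 this with e | e
        · exact absurd e CharP.ringChar_ne_one
        · exact e
      obtain ⟨σ, s⟩ := X.gasch (K := Cz z) inf_le_left (by
        rw [inf_relIndex_left, Ne, ringChar.spec, c]; exact L.i1) s0'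
      exact ⟨σ, s.mono inf_le_left⟩
    · refine X.gasch (H := Cz z ⊓ Cz t ⊓ G2) inf_le_left ?_ (s2.mono inf_le_right)
      rw [inf_relIndex_left]
      refine cast_ne index_ne_zero_of_finite fun p hp d => ?_
      rcases L.i12 p hp d with rfl | rfl | rfl
      · simpa using h2
      · simpa using h3
      · exact h11
  have sD : S ≤ Cz z ⊓ Cz t := fun _ hx => (L.Sle hx).1.1
  have sG2 : S ≤ G2 := fun _ hx => (L.Sle hx).1.2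
  have sG3 : S ≤ G3 := fun _ hx => (L.Sle hx).2
  obtain ⟨v1, a1⟩ := X.rig_two h2 L.S2 σ1 σ3 (s1.mono sD) (s3.mono sG3)
  obtain ⟨v2, a2⟩ := X.rig_two h2 L.S2 σ2 σ3 (s2.mono sG2) (s3.mono sG3)
  have t1 := X.sp_tw s1 v1
  have t2 := X.sp_tw s2 v2
  have b12 := L.ag12 X (t1.mono inf_le_left) (t2.mono inf_le_right) (a1.symm.trans a2)
  have b23 := L.ag23 X h2 (t2.mono inf_le_left) (s3.mono inf_le_right) a2.symm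
  exact ⟨_, _, _, t1, t2, s3, b12, L.ag13 X h2 h3 (t1.mono inf_le_left) (s3.mono inf_le_right)
    fun x hx => (b12 x ⟨hx.2.1, hx.1⟩).trans (b23 x ⟨hx.1, hx.2.2⟩), b23⟩

theorem LC.rig (L : LC ρ z t G2 G3 R3 S L0 N2 K0 N0) (X : Ext ρ π ι) (h2 : (2 : F) ≠ 0) (h3 : (3 : F) ≠ 0)
    (hD : Cz z ⊓ Cz t ≤ Cz z ⊓ Cz t ⊓ G2 ⊔ Cz z ⊓ Cz t ⊓ G3) : Rig π ι (Cz z ⊓ Cz t) := by
  intro σ τ s s'
  have sD : S ≤ Cz z ⊓ Cz t := fun _ hx => (L.Sle hx).1.1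
  obtain ⟨v, a⟩ := X.rig_two h2 L.S2 σ τ (s.mono sD) (s'.mono sD)
  have t1 := X.sp_tw s v
  have b2 := L.ag12 X (s'.mono inf_le_left) (t1.mono inf_le_left) a
  have b3 := L.ag13 X h2 h3 (s'.mono inf_le_left) (t1.mono inf_le_left) fun x hx => b2 x ⟨hx.2.1, hx.1⟩
  exact ⟨v, (s'.ag_sup t1 inf_le_left inf_le_left b2 b3).mono hD⟩

end Cfsg.Agent.BX
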